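import Mathlib
import Cfsg.Agent.H429.CS.OutD
import Cfsg.Agent.H221.CS.Basic
import Cfsg.Agent.H360.C8.Cross
import Cfsg.Agent.H364.SpShape
import Cfsg.Agent.H364.OutLie
import Cfsg.Agent.H545.CS.CrossFour

/-!
# S3677, rows `PSp(2n, q)` and `PΩ(2n + 1, q)`: `S` of Lie type (helper429; adapted from `H364.SpElim` of helper364)
-/

set_option autoImplicit false

namespace Cfsg.Agent.H429.CS

open Subgroup Cfsg Cfsg.Agent.OrdDiv Cfsg.Agent.H364 Cfsg.Agent.H902 Cfsg.Agent.H902.Names Cfsg.Agent.H221.CS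
open Cfsg.Agent.H364.SpVal Cfsg.Agent.H429.CS.OutD

universe u

variable {n p f M κ : ℕ} {Γ : Type u} [Group Γ] {S : Subgroup Γ}

/-- a prime of the class `k` -/
theorem exists_base (h : Dat n p f M κ Γ S) {k : ℕ} (hk : 3 ≤ k) (he : k = 2 * n ∨ k = 2 * (n - 1))
    (hne : ¬ (p = 2 ∧ f * k = 6)) :
    ∃ r : ℕ, r.Prime ∧ r ≠ p ∧ r ∣ M ∧ ¬ r ∣ κ ∧ orderOf (p : ZMod r) = f * k := by
  have hn := h.hn
  have hf := h.hY.hf
  have hq := h.q_ge
  have hfk : k ≤ f * k := Nat.le_mul_of_pos_left _ hf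
  obtain ⟨r, hr, hro⟩ := Cfsg.Agent.Lib.Zsigmondy.exists_prime_orderOf h.hY.hp.two_le (show 2 ≤ f * k by omega)
    (fun h => by omega) hne
  obtain ⟨h1, h2⟩ := ne_of_order' hr (show 3 ≤ f * k by omega) hro
  have hrp : r ≠ p := fun h3 => h2 (by rw [h3])
  have hoq : orderOf ((p ^ f : ℕ) : ZMod r) = k := by
    rw [Nat.cast_pow, orderOf_pow' _ (by omega), hro, Nat.gcd_eq_right (dvd_mul_right f k),
      Nat.mul_div_cancel_left _ hf]
  have hk2 : 2 ∣ k := by rcases he with rfl | rfl <;> exact Dvd.intro _ rfl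
  have hoq2 : orderOf (((p ^ f) ^ 2 : ℕ) : ZMod r) = k / 2 := by
    rw [Nat.cast_pow, orderOf_pow' _ (by norm_num), hoq, Nat.gcd_eq_right hk2]
  refine ⟨r, hr, hrp, ?_, h.not_dvd_large hr hrp (by rw [hoq2]; omega), hro⟩
  -- `r` divides the order
  have h3 : r ∣ (p ^ f) ^ k - 1 := by
    rw [Cfsg.Agent.Lib.Zsigmondy.dvd_pow_sub_one_iff (by omega), hoq]
  have h4 : r ∣ AA n (p ^ f) := by
    refine h3.trans ?_
    rw [AA]
    obtain ⟨i, hi⟩ := hk2
    have h5 := Finset.dvd_prod_of_mem (fun i => (p ^ f) ^ (2 * (i + 1)) - 1) (show i - 1 ∈ Finset.range n by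
      rw [Finset.mem_range]; omega)
    rwa [show 2 * (i - 1 + 1) = k by omega] at h5
  have h5 : r ∣ Art.dd (.C n) (p ^ f) * M := by
    rw [h.hY.eq]
    exact Dvd.dvd.mul_left h4 _
  rcases hr.dvd_mul.1 h5 with h6 | h6
  · exfalso
    have h7 : r ∣ 2 := h6.trans (Nat.gcd_dvd_left _ _)
    have := Nat.le_of_dvd (by norm_num) h7
    omega
  · exact h6

variable [Finite Γ]

theorem outDat (h : Dat n p f M κ Γ S) {N : Grp} {X : Art.Sh} {v g : ℕ} (hN : IsLie N X v g) (hr : OrdDiv.Real N S)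
    (hX : Art.Real X v g (Nat.card S)) : OutDat X v g S.index := by
  have hsim := h.simple
  obtain ⟨c, hc1, hc2, hc3⟩ := OutLie.card_out h.nonab hN hr hX
  exact ⟨c, by rw [← hc1]; exact h.index_dvd, hc2, hc3⟩

/-- **`S` of Lie type in characteristic `p`.** -/
theorem same (h : Dat n p f M κ Γ S) (h42 : ¬ (n = 4 ∧ p ^ f = 2)) (h32 : ¬ (n = 3 ∧ p ^ f = 2)) {N : Grp}
    {X : Art.Sh} {g : ℕ} (hN : IsLie N X p g) (hr : OrdDiv.Real N S) (hX : Art.Real X p g (Nat.card S)) :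
    Nat.card S = M := by
  have hn := h.hn
  have hf := h.hY.hf
  have hp := h.hY.hp
  have hsim := h.simple
  have hI := outDat h hN hr hX
  have hone : ∀ {a b : ℕ}, f * a = b → b < 2 * a → f = 1 ∧ a = b := by
    intro a b hab hlt
    have hf1 : f = 1 := by
      by_contra h9
      have h10 : 2 * a ≤ f * a := Nat.mul_le_mul_right _ (by omega)
      omega
    exact ⟨hf1, by rw [hf1, one_mul] at hab; exact hab⟩
  have hne1 : ¬ (p = 2 ∧ f * (2 * n) = 6) := by
    rintro ⟨rfl, h6⟩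
    obtain ⟨rfl, h8⟩ := hone h6 (by omega)
    exact h32 ⟨by omega, by norm_num⟩
  have hne2 : ¬ (p = 2 ∧ f * (2 * (n - 1)) = 6) := by
    rintro ⟨rfl, h6⟩
    obtain ⟨rfl, h8⟩ := hone h6 (by omega)
    exact h42 ⟨by omega, by norm_num⟩
  obtain ⟨r, hr, hrp, hrG, hrK, hro⟩ := exists_base h (by omega) (Or.inl rfl) hne1
  obtain ⟨s, hs, hsp, hsG, hsK, hso⟩ := exists_base h (by omega) (Or.inr rfl) hne2
  have hfn : f * 3 ≤ f * n := Nat.mul_le_mul_left _ hn
  have h6 : 6 ≤ f * Art.DM (.C n) := by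
    show 6 ≤ f * (2 * n)
    have : f * (2 * n) = 2 * (f * n) := by ring
    omega
  have hrI : ¬ r ∣ S.index := OutD.not_dvd_index hX h.hY h.pi h6 hr hro hI
  have hcases : ∀ {t : ℕ}, t.Prime → t ∣ M → ¬ t ∣ κ → ¬ t ∣ S.index → t ∣ Nat.card S := by
    intro t ht htG htK htI
    rw [← h.card_eq] at htG
    exact ((ht.dvd_mul.1 ((ht.dvd_mul.1 htG).resolve_left htK))).resolve_right htI
  have hrS := hcases hr hrG hrK hrI
  have hD : g * Art.DM X = f * (2 * n) := by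
    rcases H365.Near.D_cases hX h.hY h.pi hr hro (by omega) hrS with h7 | ⟨-, -, h7⟩
    · exact h7
    · omega
  have hsI : ¬ s ∣ S.index := OutD.not_dvd_index' hX hn hf hD le_rfl hs hso hI
  have hsS := hcases hs hsG hsK hsI
  obtain ⟨j, -, hj⟩ := h.kapp h32
  have hfac := h.fac_card hj
  have hself : (Nat.card S).factorization p = g * Art.NN X := fac_self hX
  obtain ⟨h24, h6'⟩ := OutDat.dvd hX hI (Nat.ordProj_dvd S.index p)
  refine (SpShape.same_char (δ := S.index.factorization p) (j := j) hX h.hY hn h.pi hr hro hrS hs ?_ hsS ?_ h24 h6').1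
  · rw [hso]; congr 1; omega
  · rw [← hself]; omega

/-- **`S` of Lie type in characteristic `v ≠ p`, not `L₂`.** -/
theorem cross (h : Dat n p f M κ Γ S) (h42 : ¬ (n = 4 ∧ p ^ f = 2)) (h32 : ¬ (n = 3 ∧ p ^ f = 2)) {N : Grp}
    {X : Art.Sh} {v g : ℕ} (hN : IsLie N X v g) (hr : OrdDiv.Real N S) (hX : Art.Real X v g (Nat.card S))
    (hX2 : X ≠ .L 2) (hvp : v ≠ p) : False := by
  by_cases h4 : n = 4
  · subst h4
    exact Cfsg.Agent.H545.CS.no_cross_four h (fun h2 => h42 ⟨rfl, h2⟩) hN hr hX hX2 hvp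
  have hsim := h.simple
  have hidx := h.index_dvd
  have h0 : 0 < Nat.card (Cfsg.Out S) := by
    have : Finite (MulAut S) := Finite.of_injective (fun f : MulAut S => (f : S → S)) DFunLike.coe_injective
    exact Nat.card_pos
  obtain ⟨c, hc1, hc2, -⟩ := OutLie.card_out h.nonab hN hr hX
  have hle : Nat.card (Cfsg.Out S) ≤ Art.dd X (v ^ g) * Art.NN X * g := SpOut.card_out_le h.nonab hN hr hX
  have hCr : SpFin.Cr n p f M X v g (Nat.card S) S.index := by
    refine ⟨h.hY, hX, hX2, hvp, h.pi, (Nat.le_of_dvd h0 hidx).trans hle,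
      Nat.pos_of_ne_zero h.index_ne, ?_, h.fr h32⟩
    calc S.index ∣ Nat.card (Cfsg.Out S) := hidx
      _ = c * g := hc1
      _ ∣ 24 * Art.dd X (v ^ g) * g := Nat.mul_dvd_mul_right hc2 g
  by_cases h8 : n = 8
  · subst h8
    exact H360.C8.Cross.cross_eight hCr
  · exact SpAll.cross_all hCr h.hn h4 h8 h32

end Cfsg.Agent.H429.CS
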